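import Cfsg.Agent.Lib.Block.BlkDim
import Cfsg.Agent.Lib.Block.H11Loc
import Cfsg.Agent.Lib.Char.CharKer

/-!
# Projective characters of bounded degree for modular linear groups
-/

set_option autoImplicit false
set_option linter.unusedSectionVars false

namespace CA.H10BFJ
open Cfsg MonoidAlgebra CA.BlkAlg CA.BlkVal CA.BlkOmega CA.BlkRed CA.BlkCore
  CA.BlkIdem CA.BlkIBr CChar.CharFun CChar.CharOrth CChar.CharRep CChar.CharKer
  CA.BlkDim Module Submodule

section Fun
variable {k X : Type*} [Field k] {U : Submodule k (X → k)}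

theorem comp_mem_pow (τ : X → X) (h : ∀ f ∈ U, (fun x => f (τ x)) ∈ U) :
    ∀ (j : ℕ), ∀ f ∈ U ^ j, (fun x => f (τ x)) ∈ U ^ j := by
  intro j
  induction j with
  | zero =>
    intro f hf
    rw [pow_zero, Submodule.mem_one] at hf ⊢
    obtain ⟨c, rfl⟩ := hf
    exact ⟨c, rfl⟩
  | succ j ih =>
    intro f hf
    rw [pow_succ] at hf ⊢
    refine Submodule.mul_induction_on hf (fun a ha b hb => ?_) fun a b ha hb => ?_
    · exact mul_mem_mul (ih a ha) (h b hb)
    · exact add_mem ha hb

theorem pow_mono (h1 : (1 : X → k) ∈ U) {a b : ℕ} (hab : a ≤ b) : U ^ a ≤ U ^ b := by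
  induction hab with
  | refl => exact le_rfl
  | step _ ih =>
    intro f hf
    rw [pow_succ, ← mul_one f]
    exact mul_mem_mul (ih hf) h1

theorem prod_mem_pow {ι : Type*} (s : Finset ι) {f : ι → X → k} {a : ℕ}
    (h : ∀ i ∈ s, f i ∈ U ^ a) : ∏ i ∈ s, f i ∈ U ^ (a * s.card) := by
  classical
  induction s using Finset.induction_on with
  | empty => simpa using Submodule.one_le.mp (le_refl (1 : Submodule k (X → k)))
  | insert i s hi ih =>
    rw [Finset.prod_insert hi, Finset.card_insert_of_notMem hi, mul_add, mul_one, add_comm, pow_add]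
    exact mul_mem_mul (h i (Finset.mem_insert_self _ _))
      (ih fun j hj => h j (Finset.mem_insert_of_mem hj))

theorem finrank_span_pow_le (s : Finset (X → k)) (j : ℕ) :
    finrank k ↥(span k (s : Set (X → k)) ^ j) ≤ s.card ^ j := by
  classical
  rw [Submodule.span_pow, ← Finset.coe_pow]
  exact (finrank_span_finset_le_card _).trans Finset.card_pow_le

end Fun

section Norm
variable {k G : Type*} [Field k] [Group G] [Fintype G] {n : Type*} [Fintype n] [DecidableEq n]

theorem sum_quot (P : Subgroup G) [Fintype P] [Fintype (G ⧸ P)] (f : G → k) :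
    ∑ y : G ⧸ P, ∑ u : P, f (y.out * u) = ∑ g, f g := by
  rw [← Fintype.sum_prod_type' (f := fun (y : G ⧸ P) (u : P) => f (y.out * u))]
  refine Fintype.sum_bijective (fun x : (G ⧸ P) × P => x.1.out * x.2) ⟨?_, ?_⟩ _ _ fun _ => rfl
  · rintro ⟨y, u⟩ ⟨y', u'⟩ h
    have h1 : y = y' := by
      have := congrArg (fun g : G => (g : G ⧸ P)) h
      simpa [QuotientGroup.mk_mul_of_mem _ u.2, QuotientGroup.mk_mul_of_mem _ u'.2] using this
    subst h1
    exact Prod.ext rfl (Subtype.ext (mul_left_cancel h))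
  · intro g
    obtain ⟨u, hu⟩ := QuotientGroup.mk_out_eq_mul P g
    exact ⟨((g : G ⧸ P), u⁻¹), by simp [hu]⟩

/-- A polynomial function of bounded degree has nonzero sum over the group. -/
theorem exists_sum_ne_zero (σ : G →* Matrix n n k) (hσ : Function.Injective σ) (P : Subgroup G)
    (hP : (P.index : k) ≠ 0) {U : Submodule k (G → k)} (h1 : (1 : G → k) ∈ U)
    (hT : ∀ f ∈ U, ∀ a b : G, (fun g => f (a * g * b)) ∈ U) (hI : ∀ f ∈ U, (fun g => f g⁻¹) ∈ U)
    (hU : ∀ i j, (fun g => σ g i j) ∈ U) :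
    ∃ f ∈ U ^ (2 * Nat.card P ^ 2), ∑ g, f g ≠ 0 := by
  classical
  by_contra hcon
  push Not at hcon
  set q := Nat.card P with hq
  have hc : ∀ u : P, ∃ d ∈ U, d 1 = 1 ∧ (u ≠ 1 → d u = 0) := fun u => by
    by_cases hu : u = 1
    · exact ⟨1, h1, rfl, fun h => (h hu).elim⟩
    · have : (1 - σ u : Matrix n n k) ≠ 0 := fun h => hu (Subtype.ext (hσ (by
        rw [OneMemClass.coe_one, map_one]; exact (sub_eq_zero.mp h).symm)))
      obtain ⟨r, s, h⟩ : ∃ r s, (1 - σ u : Matrix n n k) r s ≠ 0 := by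
        by_contra h
        push Not at h
        exact this (Matrix.ext h)
      set c := ((1 - σ u : Matrix n n k) r s)⁻¹ with hc
      refine ⟨(1 - c * (1 : Matrix n n k) r s) • 1 + c • fun g => σ g r s,
        add_mem (smul_mem _ _ h1) (smul_mem _ _ (hU r s)), by simp, fun _ => ?_⟩
      have h2 := inv_mul_cancel₀ h
      rw [← hc, Matrix.sub_apply] at h2
      simp only [Pi.add_apply, Pi.smul_apply, Pi.one_apply, smul_eq_mul]
      linear_combination -h2
  choose d hdU hd1 hd0 using hc
  have hqc : (Finset.univ : Finset P).card = q := by rw [hq, Nat.card_eq_fintype_card]; rfl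
  set D : G → k := ∏ u, d u with hD
  have hDU : D ∈ U ^ q := by
    have := prod_mem_pow (U := U) (a := 1) Finset.univ (f := d) fun u _ => by simpa using hdU u
    rwa [one_mul, hqc] at this
  have hD1 : ∑ u : P, D u = 1 := by
    rw [Finset.sum_eq_single 1 (fun u _ hu => ?_) (by simp)]
    · simp [hD, hd1]
    · rw [hD, Finset.prod_apply]
      exact Finset.prod_eq_zero (Finset.mem_univ u) (hd0 u hu)
  have hT' : ∀ j, ∀ f ∈ U ^ j, ∀ a b : G, (fun g => f (a * g * b)) ∈ U ^ j := fun j f hf a b =>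
    comp_mem_pow (fun g => a * g * b) (fun f hf => hT f hf a b) j f hf
  have hI' : ∀ j, ∀ f ∈ U ^ j, (fun g => f g⁻¹) ∈ U ^ j := comp_mem_pow (fun g => g⁻¹) hI
  set E : G → G → k := fun g h => ∑ u : P, D (g⁻¹ * h * u) with hE
  have hEr : ∀ g h (w : P), E g (h * w) = E g h := fun g h w =>
    Fintype.sum_equiv (Equiv.mulLeft w) _ _ fun u => by simp [mul_assoc]
  have hE1 : ∀ g (v : P), E (g * v) g = 1 := fun g v => by
    rw [← hD1]
    exact Fintype.sum_equiv (Equiv.mulLeft v⁻¹) _ _ fun u => by simp [mul_assoc]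
  have hEl : ∀ h (v : G), (fun g => E (g * v) h) ∈ U ^ q := fun h v => by
    have : (fun g => E (g * v) h) = ∑ u : P, fun g => D (v⁻¹ * g⁻¹ * (h * u)) := by
      funext g; simp [hE, mul_assoc]
    rw [this]
    exact sum_mem fun u _ => hI' q _ (hT' q D hDU v⁻¹ (h * u))
  have hEh : ∀ g, (fun h => E g h) ∈ U ^ q := fun g => by
    have : (fun h => E g h) = ∑ u : P, fun h => D (g⁻¹ * h * u) := by
      funext h; simp [hE]
    rw [this]
    exact sum_mem fun u _ => hT' q D hDU _ _
  set N : G → G → k := fun g h => ∏ v : P, E (g * v) h with hN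
  have hNl : ∀ g h (w : P), N (g * w) h = N g h := fun g h w =>
    Fintype.prod_equiv (Equiv.mulLeft w) _ _ fun u => by simp [mul_assoc]
  have hNU : ∀ h, (fun g => N g h) ∈ U ^ (q * q) := fun h => by
    have : (fun g => N g h) = ∏ v : P, fun g => E (g * v) h := by
      funext g; simp [hN]
    rw [this]
    simpa [hqc] using prod_mem_pow Finset.univ fun (v : P) _ => hEl h v
  have hf : ∀ g, ∃ f ∈ U ^ (q * q), ∀ h, N g h = ∑ u : P, f (h * u) := fun g => by
    refine ⟨∏ v : P, if v = 1 then (fun h => D (g⁻¹ * h * 1)) else fun h => E (g * v) h, ?_,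
      fun h => ?_⟩
    · have := prod_mem_pow (U := U) (a := q) Finset.univ
        (f := fun v : P => if v = 1 then (fun h => D (g⁻¹ * h * 1)) else fun h => E (g * v) h)
        fun v _ => by
          split_ifs
          · exact hT' q D hDU _ _
          · exact hEh _
      rwa [hqc] at this
    · have h3 : ∀ u : P, (∏ v : P, if v = 1 then (fun h => D (g⁻¹ * h * 1))
          else fun h => E (g * v) h) (h * u) =
          D (g⁻¹ * h * u) * ∏ v ∈ Finset.univ.erase (1 : P), E (g * v) h := fun u => by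
        rw [Finset.prod_apply, ← Finset.mul_prod_erase _ _ (Finset.mem_univ 1), if_pos rfl]
        congr 1
        · simp [mul_assoc]
        · exact Finset.prod_congr rfl fun v hv => by
            rw [if_neg (Finset.ne_of_mem_erase hv), hEr]
      simp only [h3, hN]
      rw [← Finset.sum_mul, ← Finset.mul_prod_erase _ _ (Finset.mem_univ 1)]
      simp [hE]
  let F : Matrix (G ⧸ P) (G ⧸ P) k := fun x y => N x.out y.out
  have hF : F * F = 0 := by
    ext x z
    obtain ⟨f, hfU, hf⟩ := hf x.out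
    have h4 := hcon (f * fun g => N g z.out) (by
      rw [two_mul, sq, pow_add]; exact mul_mem_mul hfU (hNU _))
    rw [← sum_quot P] at h4
    rw [Matrix.mul_apply, Matrix.zero_apply, ← h4]
    refine Finset.sum_congr rfl fun y _ => ?_
    simp only [F, hf, Pi.mul_apply, hNl, Finset.sum_mul]
  have h5 := (Matrix.isNilpotent_trace_of_isNilpotent (M := F) ⟨2, by rw [sq, hF]⟩).eq_zero
  apply hP
  rw [← h5, Subgroup.index, Nat.card_eq_fintype_card]
  simp [Matrix.trace, Matrix.diag, F, hN, hE1]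

end Norm

section Char
variable {p : ℕ} {M : Ideal AlgInt} {G : Type*} [Group G] [Finite G]

/-- The character of the left ideal generated by a lifted idempotent. -/
theorem exists_char_idem (hM : IsPModular p M) {e : (k M)[G]} (he : e * e = e) :
    ∃ Θ : G → ℂ, IsCharacter G Θ ∧
      charDegree Θ = finrank (k M) (LinearMap.range (lr (F := k M) 1 e)) ∧
      (∀ g, p ∣ orderOf g → Θ g = 0) ∧ ∀ g, Θ g = Θ 1 → ∀ b, single g 1 * (b * e) = b * e := by
  have hL : Lifts ((AlgHom.id (k M) (k M)[G]).toRingHom.comp (redHom M G)) :=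
    lifts_of_nil _ Function.surjective_id fun a ha => by
      rw [show a = 0 from ha]; exact IsNilpotent.zero
  obtain ⟨⟨f, hf⟩, hff, hfe⟩ := hL.exists_idem he
  have hff' : f * f = f := congrArg Subtype.val hff
  have hfe' : red M f = e := hfe
  let V := LinearMap.range (lr (F := ℂ) 1 f)
  have hV : ∀ (g : G) (x : ℂ[G]), lr (F := ℂ) (single g 1) f x ∈ V := fun g x =>
    ⟨single g 1 * x, by simp [lr_apply]⟩
  have hV' : ∀ x ∈ V, x * f = x := by
    rintro _ ⟨x, rfl⟩
    simp [lr_apply, mul_assoc, hff']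
  let ρ : Representation ℂ G V :=
    { toFun := fun g => (lr (F := ℂ) (single g 1) f).restrict fun x _ => hV g x
      map_one' := LinearMap.ext fun x => Subtype.ext (by
        simp [lr_apply, ← one_def, hV' _ x.2])
      map_mul' := fun g h => LinearMap.ext fun x => Subtype.ext (by
        simp only [LinearMap.restrict_coe_apply, Module.End.mul_apply, lr_apply]
        rw [mul_assoc _ _ f, mul_assoc _ _ f, mul_assoc _ _ f, hff', mul_assoc (single h 1),
          ← mul_assoc (single g 1), single_mul_single, one_mul]) }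
  have hρ : ∀ g, ρ.character g = ∑ χ : IrrCharacter G, chiL χ.1 f * χ.1 g := fun g => by
    change LinearMap.trace ℂ _ ((lr (F := ℂ) (single g 1) f).restrict fun x _ => hV g x) = _
    rw [LinearMap.trace_restrict_eq_of_forall_mem V _ (hV g), trace_lr]
    simp [mul_comm]
  refine ⟨ρ.character, isCharacter_character ρ, ?_, fun g hg => ?_, fun g hg b => ?_⟩
  · have := finrank_lr (M := M) (one_mem _) hf (one_mul 1) hff'
    rw [red_one, hfe'] at this
    have h2 : ρ.character 1 = finrank (k M) (LinearMap.range (lr (F := k M) 1 e)) := by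
      rw [this, hρ]
      simp [mul_comm, one_def]
    simp [charDegree, h2]
  · rw [hρ, sum_chiL_mul_eq_zero hM hf hff' hg]
  · rw [Representation.char_one, character_eq_finrank_iff] at hg
    have h2 : ρ g ⟨_, hV 1 (liftG M b)⟩ = ⟨_, hV 1 (liftG M b)⟩ := by rw [hg]; rfl
    have h3 : single g 1 * (liftG M b * f) = liftG M b * f := by
      simpa [ρ, lr_apply, ← one_def, mul_assoc, hff'] using congrArg Subtype.val h2
    have h4 := congrArg (red M) h3
    rwa [red_mul (single_mem_OG _ (one_mem _)) (mul_mem (liftG_mem_OG b) hf),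
      red_mul (liftG_mem_OG b) hf, red_single, res_one, red_liftG, hfe'] at h4

/-- The left ideal attached to a translation invariant space of functions. -/
theorem mul_mem_map {F : Type*} [Field F] {W : Submodule F (G → F)}
    (hT : ∀ f ∈ W, ∀ a : G, (fun g => f (a * g)) ∈ W) (b : F[G]) :
    ∀ x ∈ W.map (ofFun : (G → F) ≃ₗ[F] F[G]).toLinearMap,
      b * x ∈ W.map (ofFun : (G → F) ≃ₗ[F] F[G]).toLinearMap := by
  rintro _ ⟨f, hf, rfl⟩
  letI := Fintype.ofFinite G
  rw [eq_sum_single b, Finset.sum_mul]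
  refine sum_mem fun g _ => ?_
  rw [smul_mul_assoc]
  exact smul_mem _ _ ⟨_, hT f hf g⁻¹, ext_coeff fun x => by simp [coeff_single_mul_apply]⟩

theorem finrank_le_of_mem {F : Type*} [Field F] {W : Submodule F (G → F)}
    (hT : ∀ f ∈ W, ∀ a : G, (fun g => f (a * g)) ∈ W) {e : F[G]}
    (he : e ∈ W.map (ofFun : (G → F) ≃ₗ[F] F[G]).toLinearMap) :
    finrank F (LinearMap.range (lr (F := F) 1 e)) ≤ finrank F W := by
  rw [← LinearEquiv.finrank_map_eq ofFun W]
  refine Submodule.finrank_mono ?_
  rintro _ ⟨x, rfl⟩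
  rw [lr_apply, one_mul]
  exact mul_mem_map hT x e he

end Char

section Main
variable {p : ℕ} {M : Ideal AlgInt} {G : Type*} [Group G] [Finite G] {n : ℕ}

theorem exists_space {F : Type*} [Field F] (σ : G →* Matrix (Fin n) (Fin n) F) :
    ∃ U : Submodule F (G → F), (∀ j, finrank F ↥(U ^ j) ≤ (1 + 2 * n ^ 2) ^ j) ∧ 1 ∈ U ∧
      (∀ f ∈ U, ∀ a b : G, (fun g => f (a * g * b)) ∈ U) ∧ (∀ f ∈ U, (fun g => f g⁻¹) ∈ U) ∧
      ∀ i j, (fun g => σ g i j) ∈ U := by
  classical
  let s : Finset (G → F) := insert 1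
    ((Finset.univ.image fun x : Fin n × Fin n => fun g => σ g x.1 x.2) ∪
      Finset.univ.image fun x : Fin n × Fin n => fun g => σ g⁻¹ x.1 x.2)
  have h1 : (1 : G → F) ∈ span F (s : Set (G → F)) := subset_span (by simp [s])
  have h2 : ∀ i j, (fun g => σ g i j) ∈ span F (s : Set (G → F)) := fun i j =>
    subset_span (by
      simp only [s, Finset.coe_insert, Finset.coe_union, Finset.coe_image]
      exact Or.inr (Or.inl ⟨(i, j), by simp, rfl⟩))
  have h3 : ∀ i j, (fun g => σ g⁻¹ i j) ∈ span F (s : Set (G → F)) := fun i j =>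
    subset_span (by
      simp only [s, Finset.coe_insert, Finset.coe_union, Finset.coe_image]
      exact Or.inr (Or.inr ⟨(i, j), by simp, rfl⟩))
  have key : ∀ τ : G → G, (∀ i j, (fun g => σ (τ g) i j) ∈ span F (s : Set (G → F))) →
      (∀ i j, (fun g => σ (τ g)⁻¹ i j) ∈ span F (s : Set (G → F))) →
      ∀ f ∈ span F (s : Set (G → F)), (fun g => f (τ g)) ∈ span F (s : Set (G → F)) := by
    intro τ a1 a2 f hf
    induction hf using span_induction with
    | mem x hx =>
      simp only [s, Finset.coe_insert, Finset.coe_union, Finset.coe_image] at hx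
      rcases hx with rfl | ⟨x, -, rfl⟩ | ⟨x, -, rfl⟩
      exacts [h1, a1 _ _, a2 _ _]
    | zero => exact zero_mem _
    | add x y _ _ hx hy => exact add_mem hx hy
    | smul c x _ hx => exact smul_mem _ c hx
  have key2 : ∀ (τ : G → G) (a b : G), (∀ i j, (fun g => σ (τ g) i j) ∈ span F (s : Set (G → F))) →
      ∀ i j, (fun g => σ (a * τ g * b) i j) ∈ span F (s : Set (G → F)) := by
    intro τ a b h i j
    have : (fun g => σ (a * τ g * b) i j) =
        ∑ l, ∑ m, (σ a i m * σ b l j) • fun g => σ (τ g) m l := by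
      funext g
      simp only [map_mul, Matrix.mul_apply, Finset.sum_apply, Pi.smul_apply, smul_eq_mul,
        Finset.sum_mul]
      exact Finset.sum_congr rfl fun _ _ => Finset.sum_congr rfl fun _ _ => by ring
    rw [this]
    exact sum_mem fun l _ => sum_mem fun m _ => smul_mem _ _ (h m l)
  refine ⟨span F s, fun j => (finrank_span_pow_le s j).trans (Nat.pow_le_pow_left ?_ j), h1,
    fun f hf a b => key (fun g => a * g * b) (key2 id a b h2) (fun i j => ?_) f hf,
    key _ h3 (by simpa using h2), h2⟩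
  · refine (Finset.card_insert_le _ _).trans ?_
    have := Finset.card_union_le (Finset.univ.image fun x : Fin n × Fin n => fun g => σ g x.1 x.2)
      (Finset.univ.image fun x : Fin n × Fin n => fun g => σ g⁻¹ x.1 x.2)
    have a1 := Finset.card_image_le (s := Finset.univ)
      (f := fun x : Fin n × Fin n => fun g => σ g x.1 x.2)
    have a2 := Finset.card_image_le (s := Finset.univ)
      (f := fun x : Fin n × Fin n => fun g => σ g⁻¹ x.1 x.2)
    simp only [Finset.card_univ, Fintype.card_prod, Fintype.card_fin] at a1 a2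
    nlinarith
  · simpa [mul_assoc] using key2 (fun g => g⁻¹) b⁻¹ a⁻¹ h3 i j

/-- A projective character of bounded degree. -/
theorem exists_proj [Fact p.Prime] (hM : IsPModular p M) (σ : G →* Matrix (Fin n) (Fin n) (k M))
    (hσ : Function.Injective σ) : ∃ Θ : G → ℂ, IsCharacter G Θ ∧
      charDegree Θ ≤ (1 + 2 * n ^ 2) ^ (2 * (p ^ (Nat.card G).factorization p) ^ 2) ∧
      ∀ g, Θ g = Θ 1 → ¬ p ∣ orderOf g := by
  letI := Fintype.ofFinite G
  haveI := charP_k hM
  obtain ⟨U, hd, h1, hT, hI, hU⟩ := exists_space σ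
  obtain ⟨P⟩ : Nonempty (Sylow p G) := inferInstance
  obtain ⟨f, hf, hf0⟩ := exists_sum_ne_zero σ hσ (P : Subgroup G)
    (fun h => P.not_dvd_index ((CharP.cast_eq_zero_iff (k M) p _).mp h)) h1 hT hI hU
  rw [P.card_eq_multiplicity] at hf
  set j := 2 * (p ^ (Nat.card G).factorization p) ^ 2
  have hT' : ∀ f ∈ U ^ j, ∀ a : G, (fun g => f (a * g)) ∈ U ^ j := fun f hf a =>
    comp_mem_pow (fun g => a * g) (fun f hf => by simpa using hT f hf a 1) j f hf
  set a : (k M)[G] := ofFun f with ha
  have hS : H11Loc.Comm (Algebra.adjoin (k M) {a}) := fun x hx y hy =>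
    Algebra.commute_of_mem_adjoin_of_forall_mem_commute hy fun z hz => by
      rw [Set.mem_singleton_iff.mp hz]
      exact (Algebra.commute_of_mem_adjoin_self hx).symm
  obtain ⟨m, y, hy, hi, hm⟩ := H11Loc.exists_fitting hS (Algebra.self_mem_adjoin_singleton _ a)
  have hc : a * y = y * a := (hS _ (Algebra.self_mem_adjoin_singleton _ a) _ hy).eq
  obtain ⟨Θ, hΘ, hdeg, h0, -⟩ := exists_char_idem hM hi
  have hle := finrank_le_of_mem hT' (e := a * y) (hc ▸ mul_mem_map hT' y a ⟨f, hf, rfl⟩)
  refine ⟨Θ, hΘ, hdeg ▸ hle.trans (hd j), fun g hg hp => ?_⟩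
  have h2 : charDegree Θ = 0 := by simp [charDegree, ← hg, h0 g hp]
  rw [hdeg, Submodule.finrank_eq_zero] at h2
  have h3 : a * y = 0 := by
    have : lr (F := k M) 1 (a * y) 1 ∈ LinearMap.range (lr (F := k M) 1 (a * y)) := ⟨_, rfl⟩
    simpa [h2, lr_apply] using this
  rw [h3, mul_zero] at hm
  have h4 := congrArg (MonoidAlgebra.lift (k M) (k M) G 1) hm
  rw [map_zero, map_pow] at h4
  apply hf0
  rw [← eq_zero_of_pow_eq_zero h4.symm, eq_sum_single a, map_sum]
  simp [ha]

/-- Lifting a faithful modular representation of a group of order prime to `p`. -/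
theorem exists_faithful (hM : IsPModular p M) (hG : ¬ p ∣ Nat.card G)
    (σ : G →* Matrix (Fin n) (Fin n) (k M)) (hσ : Function.Injective σ) :
    ∃ Θ : G → ℂ, IsCharacter G Θ ∧ charDegree Θ ≤ 1 + 2 * n ^ 2 ∧ ∀ g, Θ g = Θ 1 → g = 1 := by
  haveI := charP_k hM
  haveI : NeZero (Nat.card G : k M) := ⟨fun h => hG ((CharP.cast_eq_zero_iff (k M) p _).mp h)⟩
  obtain ⟨U, hd, h1, hT, hI, hU⟩ := exists_space σ
  have hT' : ∀ f ∈ U, ∀ a : G, (fun g => f (a * g)) ∈ U := fun f hf a => by
    simpa using hT f hf a 1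
  let I : Ideal (k M)[G] :=
    { carrier := U.map (ofFun : (G → k M) ≃ₗ[k M] (k M)[G]).toLinearMap
      add_mem' := add_mem
      zero_mem' := zero_mem _
      smul_mem' := fun c x hx => mul_mem_map hT' c x hx }
  obtain ⟨e, he, hI'⟩ := IsSemisimpleRing.ideal_eq_span_idempotent I
  obtain ⟨Θ, hΘ, hdeg, -, hk⟩ := exists_char_idem hM he.eq
  have hle := finrank_le_of_mem hT' (e := e) (show e ∈ I from hI' ▸ Ideal.mem_span_singleton_self e)
  refine ⟨Θ, hΘ, hdeg ▸ hle.trans (by have := hd 1; rwa [pow_one, pow_one] at this), fun g hg => hσ (Matrix.ext fun i j => ?_)⟩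
  have h2 : ofFun (fun g => σ g⁻¹ i j) ∈ I := ⟨_, hI _ (hU i j), rfl⟩
  rw [hI', Ideal.mem_span_singleton'] at h2
  obtain ⟨b, hb⟩ := h2
  have h3 := hk g hg b
  rw [hb] at h3
  simpa [coeff_single_mul_apply] using congrArg (fun x : (k M)[G] => x.coeff 1) h3

/-- Specialisation of a faithful representation to an algebraically closed field. -/
theorem exists_special [Fact p.Prime] (K : Type*) [Field K] [IsAlgClosed K] [CharP K p]
    {F : Type*} [Field F] [CharP F p] (σ : G →* Matrix (Fin n) (Fin n) F)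
    (hσ : Function.Injective σ) :
    ∃ τ : G →* Matrix (Fin n) (Fin n) K, Function.Injective τ := by
  letI : Algebra (ZMod p) F := ZMod.algebra F p
  letI : Algebra (ZMod p) K := ZMod.algebra K p
  let s : Set F := (Set.range fun x : G × Fin n × Fin n => σ x.1 x.2.1 x.2.2) ∪
    Set.range fun x : G × Fin n × Fin n => ((σ x.1 - 1) x.2.1 x.2.2)⁻¹
  have hs : s.Finite := (Set.finite_range _).union (Set.finite_range _)
  let R := Algebra.adjoin (ZMod p) s
  haveI : Algebra.FiniteType (ZMod p) R := Algebra.FiniteType.adjoin_of_finite hs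
  obtain ⟨m, hm⟩ := Ideal.exists_maximal R
  letI := Ideal.Quotient.field m
  haveI : Module.Finite (ZMod p) (R ⧸ m) := finite_of_finite_type_of_isJacobsonRing _ _
  let φ : R →ₐ[ZMod p] K := (IsAlgClosed.lift : (R ⧸ m) →ₐ[ZMod p] K).comp (Ideal.Quotient.mkₐ _ m)
  have h1 : ∀ g i j, σ g i j ∈ R := fun g i j =>
    Algebra.subset_adjoin (Or.inl ⟨(g, i, j), rfl⟩)
  let σ' : G →* Matrix (Fin n) (Fin n) R :=
    { toFun := fun g => Matrix.of fun i j => ⟨σ g i j, h1 g i j⟩
      map_one' := Matrix.ext fun i j => Subtype.ext (by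
        simp only [map_one, Matrix.one_apply, Matrix.of_apply]; split_ifs <;> rfl)
      map_mul' := fun g h => Matrix.ext fun i j => Subtype.ext (by
        simp [Matrix.mul_apply]) }
  refine ⟨(φ.toRingHom.mapMatrix (m := Fin n)).toMonoidHom.comp σ',
    (injective_iff_map_eq_one _).mpr fun g hg => hσ ?_⟩
  rw [map_one, ← sub_eq_zero]
  ext i j
  by_contra h
  have h2 : φ ((σ' g - 1) i j) = 0 := by
    have : φ.toRingHom.mapMatrix (σ' g - 1) = 0 := by
      rw [map_sub, map_one, sub_eq_zero]; exact hg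
    exact congrFun (congrFun this i) j
  have h3 : (((σ' g - 1) i j : R) : F) = (σ g - 1) i j := by
    simp only [Matrix.sub_apply, Matrix.one_apply]; split_ifs <;> rfl
  have h4 : (σ' g - 1) i j * ⟨((σ g - 1) i j)⁻¹,
      Algebra.subset_adjoin (Or.inr ⟨(g, i, j), rfl⟩)⟩ = 1 := Subtype.ext (by
    rw [MulMemClass.coe_mul, h3]; exact mul_inv_cancel₀ h)
  have h5 := congrArg φ h4
  rw [map_mul, h2, zero_mul, map_one] at h5
  exact zero_ne_one h5

end Main

end CA.H10BFJ
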