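import Cfsg.Agent.Lib.Block.H11Sec
import Cfsg.Agent.Lib.Block.BlkRk

/-! Knörr–Robinson: the local formula for `k - l` and the pairing of chains. -/

set_option autoImplicit false
set_option linter.unusedSectionVars false

namespace CA.H10KR
open Cfsg MonoidAlgebra CA.BlkAlg CA.BlkVal CA.BlkOmega CA.BlkRed CA.BlkCore CA.BlkDefect
  CA.BlkReg CA.BlkInd CA.BlkQuo CA.H12PPart CA.H11Contrib CA.H11Sec CA.BlkRk
  CChar.CharFun CChar.CharOrth Subgroup
open CA.BlkBas (tr tr_apply)
open CA.H11Map (mp)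
open scoped ComplexConjugate

variable {p : ℕ} {M : Ideal AlgInt} {G K L : Type*} [Group G] [Finite G] [Group K] [Finite K]
  [Group L] [Finite L]

variable (M) in
/-- The characters whose block induces the block of `χ` along `φ`. -/
def IA (φ : K →* G) (χ : IrrCharacter G) : Set (IrrCharacter K) := {ψ | Ind M φ ψ χ}

theorem isSat_IA (φ : K →* G) (χ : IrrCharacter G) : IsSat M (IA M φ χ) :=
  fun _ h _ e => Ind.of_lam_left h e

theorem IA_id (hM : IsPModular p M) {B : Set (IrrCharacter G)} (hB : IsPBlock M B)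
    {χ : IrrCharacter G} (hχ : χ ∈ B) : IA M (MonoidHom.id G) χ = B := by
  ext ψ
  constructor
  · intro h
    have := Ind.sameBlock hM h (ind_id ψ)
    exact (mem_iff_lam hM hB hχ).2 ((sameBlock_iff_lam hM _ _).1 this)
  · intro h
    exact (ind_id ψ).of_mem hM hB hB h h h hχ

theorem IA_subtype (hM : IsPModular p M) {B : Set (IrrCharacter G)} (hB : IsPBlock M B)
    {χ : IrrCharacter G} (hχ : χ ∈ B) (H : Subgroup G) :
    {ψ : IrrCharacter H | ∃ β, ψ ∈ β ∧ IsInducedBlock M H β B} = IA M H.subtype χ := by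
  ext ψ
  constructor
  · rintro ⟨β, h1, h2⟩
    exact ind_of_isInducedBlock hM h2 h1 hχ
  · intro h
    refine ⟨_, self_mem_blockOf hM ψ, ?_⟩
    rw [eq_blockOf_of_mem hM hB hχ]
    exact isInducedBlock_blockOf hM h

theorem rank_equiv [Fact p.Prime] (hM : IsPModular p M) (e : L ≃* K) (φ : K →* G)
    (χ : IrrCharacter G) :
    blockRank p (IA M (φ.comp e.toMonoidHom) χ) = blockRank p (IA M φ χ) := by
  have hs : Function.Surjective e.toMonoidHom := e.surjective
  have hk : e.toMonoidHom.ker = ⊥ := (MonoidHom.ker_eq_bot_iff _).2 e.injective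
  rw [blockRank_preimage hs hM (by rw [hk]; exact IsPGroup.of_bot) (fun g _ x hx => by
    rw [hk] at hx; rw [mem_bot.1 hx, one_mul, mul_one])
    (isSat_IA _ _)]
  congr 1
  ext ψ
  refine Ind.comp_iff (fun z hz => ?_)
  rw [lam_infl hs ψ (pull_mem_Z _ hz)]
  congr 1
  refine ext_coeff fun y => ?_
  obtain ⟨x, rfl⟩ := hs y
  rw [coeff_mp_of_unique _ _ fun x' h _ => e.injective h]
  rfl

/-- Additivity of the rank over the blocks. -/
theorem rank_eq_sum (hM : IsPModular p M) {A : Set (IrrCharacter K)} (hA : IsSat M A)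
    [DecidablePred fun c : Set (IrrCharacter K) => c ⊆ A] :
    (blockRank p A : ℂ) = ∑ c ∈ blocks M K, if c ⊆ A then (blockRank p c : ℂ) else 0 := by
  classical
  haveI := Fintype.ofFinite K
  rw [blockRank_eq_sum hM hA, Finset.sum_filter, sum_irr_eq_sum_blocks hM]
  refine Finset.sum_congr rfl fun c hc => ?_
  have hc := mem_blocks.1 hc
  split_ifs with h
  · rw [blockRank_eq_sum hM (isSat_of_isPBlock hM hc)]
    exact Finset.sum_congr rfl fun ψ hψ => if_pos (h (Finset.mem_filter.1 hψ).2)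
  · exact Finset.sum_eq_zero fun ψ hψ => if_neg fun h' =>
      h (hA.subset_of_mem hM hc (Finset.mem_filter.1 hψ).2 h')

open Classical in
/-- The part of the norm on the elements with `p`-part `u`. -/
noncomputable def sec (p : ℕ) [Fintype K] (θ : K → ℂ) (u : K) : ℂ :=
  ∑ g with pPart p g = u, θ g * conj (θ g)

section
variable [Fintype K] {θ : K → ℂ} {u : K}

theorem sum_sec (θ : K → ℂ) : ∑ u, sec p θ u = Nat.card K * classInner θ θ := by
  classical
  rw [classInner, mul_inv_cancel_left₀ (Nat.cast_ne_zero.2 Nat.card_pos.ne')]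
  unfold sec
  convert Finset.sum_fiberwise Finset.univ (pPart p) fun g => θ g * conj (θ g)

theorem sec_of_not (hp : p.Prime) (h : ¬ ∃ n : ℕ, orderOf u = p ^ n) : sec p θ u = 0 := by
  classical
  exact Finset.sum_eq_zero fun g hg => (h (by
    rw [← (Finset.mem_filter.1 hg).2]; exact orderOf_pPart hp g)).elim

theorem sec_one (hp : p.Prime) : sec p θ 1 = Nat.card K * classInner (pRegularPart p θ) θ := by
  classical
  rw [classInner, mul_inv_cancel_left₀ (Nat.cast_ne_zero.2 Nat.card_pos.ne'), sec,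
    Finset.sum_filter]
  refine Finset.sum_congr rfl fun g _ => ?_
  rw [pRegularPart_apply, pPart_eq_one_iff hp]
  split_ifs <;> simp

theorem sec_eq (hp : p.Prime) (hu : ∃ n : ℕ, orderOf u = p ^ n)
    [Fintype (centralizer ({u} : Set K))] :
    sec p θ u = Nat.card (centralizer ({u} : Set K)) *
      classInner (tr (centralizer {u}) u θ) (pRegularPart p (tr (centralizer {u}) u θ)) := by
  classical
  rw [classInner, mul_inv_cancel_left₀ (Nat.cast_ne_zero.2 Nat.card_pos.ne'), sec]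
  symm
  rw [← Finset.sum_filter_add_sum_filter_not _ fun c : centralizer ({u} : Set K) => p ∣ orderOf c,
    Finset.sum_eq_zero fun c hc => by rw [pReg_of_dvd _ (Finset.mem_filter.1 hc).2]; simp,
    zero_add]
  have hc : ∀ c : centralizer ({u} : Set K), Commute u c := fun c => c.2 u rfl
  refine Finset.sum_bij (fun c _ => u * c) (fun c h => ?_) (fun c _ d _ h => ?_) (fun g h => ?_)
    (fun c h => ?_)
  · refine Finset.mem_filter.2 ⟨Finset.mem_univ _, pPart_mul_of hp (hc c) hu ?_⟩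
    simpa using (Finset.mem_filter.1 h).2
  · exact Subtype.ext (mul_left_cancel h)
  · have h1 := (Finset.mem_filter.1 h).2
    refine ⟨⟨pReg p g, ?_⟩, Finset.mem_filter.2 ⟨Finset.mem_univ _, ?_⟩, ?_⟩
    · rintro _ rfl
      rw [← h1]
      exact commute_pPart_pReg hp g
    · rw [← Subgroup.orderOf_coe]; exact not_dvd_orderOf_pReg hp g
    · subst h1; exact pPart_mul_pReg p g
  · rw [pReg_of_not_dvd _ (Finset.mem_filter.1 h).2]
    rfl

theorem sum_sec_IA (hM : IsPModular p M) (hu : ∃ n : ℕ, orderOf u = p ^ n) (φ : K →* G)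
    (χ : IrrCharacter G) [DecidablePred (· ∈ IA M φ χ)] :
    ∑ ψ with ψ ∈ IA M φ χ, sec p ψ.1 u = Nat.card (centralizer ({u} : Set K)) *
      blockRank p (IA M (φ.comp (centralizer ({u} : Set K)).subtype) χ) := by
  classical
  haveI := Fintype.ofFinite (centralizer ({u} : Set K))
  have hp := hM.1
  have h1 : ∀ ψ : IrrCharacter K, sec p ψ.1 u = Nat.card (centralizer ({u} : Set K)) *
      ∑ c ∈ blocks M (centralizer ({u} : Set K)), cb p c u ψ.1 ψ.1 := fun ψ => by
    rw [sec_eq hp hu, ← sum_sp hM le_rfl (irr_classFun ψ.2), CChar.CharFun.inner_sum_right]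
    congr 1
    exact Finset.sum_congr rfl fun c hc => (cb_eq_inner_tr hM
      (isSat_of_isPBlock hM (mem_blocks.1 hc)) le_rfl (irr_classFun ψ.2) _).symm
  simp only [h1]
  rw [← Finset.mul_sum, Finset.sum_comm, rank_eq_sum hM (isSat_IA _ _)]
  congr 1
  refine Finset.sum_congr rfl fun c hc => ?_
  have hc := mem_blocks.1 hc
  obtain ⟨β, hβ⟩ := defined hM hu rfl hc
  obtain ⟨η, hη⟩ := block_nonempty hM hβ.2.1
  obtain ⟨ξ, hξ⟩ := block_nonempty hM hc
  have hiff : c ⊆ IA M (φ.comp (centralizer ({u} : Set K)).subtype) χ ↔ β ⊆ IA M φ χ := by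
    constructor
    · intro h ψ hψ
      exact (Ind.comp_iff (ind_of_isInducedBlock hM hβ hξ hψ)).1 (h hξ)
    · intro h ζ hζ
      exact (Ind.comp_iff (ind_of_isInducedBlock hM hβ hζ hη)).2 (h hη)
  split_ifs with h
  · rw [← sum_cb_self hM hu rfl hβ]
    symm
    refine Finset.sum_subset (fun ψ hψ => ?_) (fun ψ _ hψ => ?_)
    · exact Finset.mem_filter.2 ⟨Finset.mem_univ _, hiff.1 h (Finset.mem_filter.1 hψ).2⟩
    · exact cb_self_eq_zero.2 (sp_eq_zero_of_not_mem hM hu rfl hβ fun h' =>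
        hψ (Finset.mem_filter.2 ⟨Finset.mem_univ _, h'⟩))
  · exact Finset.sum_eq_zero fun ψ hψ => cb_self_eq_zero.2 (sp_eq_zero_of_not_mem hM hu rfl hβ
      fun h' => h (hiff.2 ((isSat_IA φ χ).subset_of_mem hM hβ.2.1 h' (Finset.mem_filter.1 hψ).2)))

end

variable (p M) in
/-- The weight of a subgroup. -/
noncomputable def W (χ : IrrCharacter G) (C : Subgroup G) : ℤ :=
  Nat.card C * blockRank p (IA M C.subtype χ)

open Classical in
theorem card_sub_rank [Fact p.Prime] [Fintype G] (hM : IsPModular p M) {φ : K →* G}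
    (hφ : Function.Injective φ) (χ : IrrCharacter G) :
    (Nat.card K : ℤ) * ((Nat.card (IA M φ χ) : ℤ) - blockRank p (IA M φ χ)) =
      ∑ u : G, if u ∈ φ.range ∧ u ≠ 1 ∧ ∃ n : ℕ, orderOf u = p ^ n then
        W p M χ (φ.range ⊓ centralizer {u}) else 0 := by
  haveI := Fintype.ofFinite K
  have hp := hM.1
  apply Int.cast_injective (α := ℂ)
  have h1 : (Nat.card K : ℂ) * Nat.card (IA M φ χ) = ∑ u, ∑ ψ with ψ ∈ IA M φ χ, sec p ψ.1 u := by
    rw [Finset.sum_comm, card_set_eq, Finset.card_eq_sum_ones, Nat.cast_sum, Finset.mul_sum]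
    exact Finset.sum_congr rfl fun ψ _ => by rw [sum_sec, inner_irr_self ψ.2, Nat.cast_one]
  have h2 : (Nat.card K : ℂ) * blockRank p (IA M φ χ) = ∑ ψ with ψ ∈ IA M φ χ, sec p ψ.1 1 := by
    rw [blockRank_eq_sum hM (isSat_IA _ _), Finset.mul_sum]
    exact Finset.sum_congr rfl fun ψ _ => by rw [sec_one hp, mm_def]
  push_cast
  rw [mul_sub, h1, h2, ← Finset.add_sum_erase _ _ (Finset.mem_univ 1), add_sub_cancel_left,
    ← Finset.sum_subset (Finset.subset_univ (Finset.univ.map ⟨φ, hφ⟩)) (fun u _ hu => by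
      rw [if_neg]
      rintro ⟨⟨x, rfl⟩, -⟩
      exact hu (Finset.mem_map_of_mem _ (Finset.mem_univ x))), Finset.sum_map,
    ← Finset.add_sum_erase _ _ (Finset.mem_univ 1)]
  simp only [Function.Embedding.coeFn_mk]
  rw [if_neg (by simp), zero_add]
  refine Finset.sum_congr rfl fun u hu => ?_
  have hu1 : φ u ≠ 1 := fun h => (Finset.mem_erase.1 hu).1 (hφ (h.trans (map_one φ).symm))
  have ho := orderOf_injective φ hφ u
  by_cases h : ∃ n : ℕ, orderOf u = p ^ n
  · rw [if_pos ⟨⟨u, rfl⟩, hu1, by rwa [ho]⟩, sum_sec_IA hM h, W]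
    have hm : (centralizer ({u} : Set K)).map φ = φ.range ⊓ centralizer {φ u} := by
      ext y
      constructor
      · rintro ⟨x, hx, rfl⟩
        refine ⟨⟨x, rfl⟩, ?_⟩
        rintro _ rfl
        rw [← map_mul, ← map_mul, hx u rfl]
      · rintro ⟨⟨x, rfl⟩, hx⟩
        refine ⟨x, ?_, rfl⟩
        rintro _ rfl
        apply hφ
        rw [map_mul, map_mul]
        exact hx _ rfl
    let e := ((centralizer ({u} : Set K)).equivMapOfInjective φ hφ).trans
      (MulEquiv.subgroupCongr hm)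
    have := rank_equiv hM e (φ.range ⊓ centralizer {φ u} : Subgroup G).subtype χ
    rw [← this, Nat.card_congr e.toEquiv]
    push_cast
    rfl
  · rw [if_neg (by rw [ho]; exact fun h' => h h'.2.2)]
    exact Finset.sum_eq_zero fun ψ _ => sec_of_not hp h

/-! ### chains -/

section chains
variable {u : G} {s : Finset (Subgroup G)} {T R H : Subgroup G}

theorem le_of_pgroup [Fact p.Prime] (hR : IsPGroup p R) (hH : H ≤ R)
    (h : ∀ N, H ≤ N → N ≤ R → R ≤ normalizer (N : Set G) → R ≤ N) : R ≤ H := by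
  rcases eq_top_or_exists_le_coatom (H.subgroupOf R) with h1 | ⟨N, hN, h1⟩
  · exact subgroupOf_eq_top.1 h1
  · haveI := hR.isNilpotent
    haveI : N.Normal := normalizerCondition_of_isNilpotent.normal_of_coatom N hN
    have h2 := h (N.map R.subtype) (fun x hx => ⟨⟨x, hH hx⟩, h1 hx, rfl⟩) (map_subtype_le _)
      (by
        have := le_normalizer_map (H := N) R.subtype
        rwa [normalizer_eq_top, ← MonoidHom.range_eq_map, range_subtype] at this)
    refine (hN.1 (eq_top_iff.2 fun x _ => ?_)).elim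
    obtain ⟨y, hy, e⟩ := h2 x.2
    rwa [← Subtype.ext e]

/-- The closure of the `T`-conjugates of `u`. -/
def ncl (T : Subgroup G) (u : G) : Subgroup G := closure {y | ∃ t ∈ T, t * u * t⁻¹ = y}

theorem mem_ncl : u ∈ ncl T u := subset_closure ⟨1, T.one_mem, by simp⟩

theorem ncl_le (hu : u ∈ H) (hT : T ≤ normalizer (H : Set G)) : ncl T u ≤ H := by
  refine (closure_le _).2 ?_
  rintro _ ⟨t, ht, rfl⟩
  exact (mem_normalizer_iff.1 (hT ht) u).1 hu

theorem mem_norm_of {x : G} (h : ∀ y ∈ H, x * y * x⁻¹ ∈ H) : x ∈ normalizer (H : Set G) :=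
  mem_normalizer_fintype h

theorem mem_norm_ncl {x : G} (h : ∀ t ∈ T, ∃ t' ∈ T, x * (t * u * t⁻¹) * x⁻¹ = t' * u * t'⁻¹) :
    x ∈ normalizer (ncl T u : Set G) := by
  refine mem_norm_of fun y hy => ?_
  have : ncl T u ≤ (ncl T u).comap (MulAut.conj x).toMonoidHom := by
    refine (closure_le _).2 ?_
    rintro _ ⟨t, ht, rfl⟩
    obtain ⟨t', h1, h2⟩ := h t ht
    exact subset_closure ⟨t', h1, h2.symm⟩
  exact this hy

theorem mem_norm_sup {A B : Subgroup G} {x : G} (hA : x ∈ normalizer (A : Set G))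
    (hB : x ∈ normalizer (B : Set G)) : x ∈ normalizer ((A ⊔ B : Subgroup G) : Set G) :=
  normalizer_inf_normalizer_le_normalizer_sup A B ⟨hA, hB⟩

theorem mem_norm_fsup {x : G} (h : ∀ Q ∈ s, x ∈ normalizer ((Q : Subgroup G) : Set G)) :
    x ∈ normalizer ((s.sup id : Subgroup G) : Set G) := by
  refine Finset.sup_induction (p := fun Q : Subgroup G => x ∈ normalizer (Q : Set G)) ?_
    (fun _ ha _ hb => mem_norm_sup ha hb) h
  rw [normalizer_eq_top]; trivial

/-- The top of the chain, enlarged by `u`. -/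
def tp (u : G) (s : Finset (Subgroup G)) : Subgroup G := s.sup id ⊔ zpowers u

open Classical in
/-- The join of the members not containing `u`. -/
noncomputable def lw (u : G) (s : Finset (Subgroup G)) : Subgroup G := (s.filter (u ∉ ·)).sup id

/-- The subgroup to be toggled. -/
noncomputable def tg (u : G) (s : Finset (Subgroup G)) : Subgroup G := lw u s ⊔ ncl (tp u s) u

/-- Normal chains normalized by `u`. -/
structure Good (p : ℕ) (u : G) (s : Finset (Subgroup G)) : Prop where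
  chain : ∀ Q ∈ s, ∀ R ∈ s, Q ≤ R ∨ R ≤ Q
  pg : ∀ Q ∈ s, Q ≠ ⊥ ∧ IsPGroup p Q
  nm : ∀ Q ∈ s, tp u s ≤ normalizer ((Q : Subgroup G) : Set G)

theorem le_tp {Q : Subgroup G} (h : Q ∈ s) : Q ≤ tp u s :=
  (Finset.le_sup (f := id) h).trans le_sup_left

theorem mem_tp : u ∈ tp u s := mem_sup_right (mem_zpowers u)

theorem tp_le (h : ∀ Q ∈ s, Q ≤ H) (hu : u ∈ H) : tp u s ≤ H :=
  sup_le (Finset.sup_le h) (zpowers_le.2 hu)

theorem le_lw {Q : Subgroup G} (h : Q ∈ s) (hu : u ∉ Q) : Q ≤ lw u s := by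
  classical
  exact Finset.le_sup (f := id) (Finset.mem_filter.2 ⟨h, hu⟩)

theorem lw_le (h : ∀ Q ∈ s, u ∉ Q → Q ≤ H) : lw u s ≤ H := by
  classical
  exact Finset.sup_le fun Q hQ => h Q (Finset.mem_filter.1 hQ).1 (Finset.mem_filter.1 hQ).2

theorem mem_tg : u ∈ tg u s := mem_sup_right mem_ncl

theorem tg_le_tp : tg u s ≤ tp u s :=
  sup_le (lw_le fun _ h _ => le_tp h) (ncl_le mem_tp le_normalizer)

theorem Good.tg_le (h : Good p u s) {Q : Subgroup G} (hQ : Q ∈ s) (hu : u ∈ Q) : tg u s ≤ Q :=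
  sup_le (lw_le fun R hR hu' => (h.chain R hR Q hQ).resolve_right fun h' => hu' (h' hu))
    (ncl_le hu (h.nm Q hQ))

theorem le_tg {Q : Subgroup G} (hQ : Q ∈ s) (hu : u ∉ Q) : Q ≤ tg u s :=
  (le_lw hQ hu).trans le_sup_left

theorem mem_norm_lw {x : G} (h : ∀ Q ∈ s, x ∈ normalizer ((Q : Subgroup G) : Set G)) :
    x ∈ normalizer (lw u s : Set G) := by
  classical
  exact mem_norm_fsup fun Q hQ => h Q (Finset.mem_filter.1 hQ).1

theorem Good.tp_le_norm (h : Good p u s) : tp u s ≤ normalizer (tg u s : Set G) := fun x hx =>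
  mem_norm_sup (mem_norm_lw fun Q hQ => h.nm Q hQ hx)
    (mem_norm_ncl fun t ht => ⟨x * t, (tp u s).mul_mem hx ht, by group⟩)

theorem mem_norm_tg {x : G} (h : ∀ Q ∈ s, x ∈ normalizer ((Q : Subgroup G) : Set G))
    (hc : x ∈ centralizer ({u} : Set G)) : x ∈ normalizer (tg u s : Set G) := by
  have h1 : x * u * x⁻¹ = u := by rw [← hc u rfl, mul_inv_cancel_right]
  have h2 : x ∈ normalizer (tp u s : Set G) := by
    refine mem_norm_sup (mem_norm_fsup h) (mem_norm_of ?_)
    rintro _ ⟨n, rfl⟩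
    exact ⟨n, by simp only [← conj_zpow, h1]⟩
  refine mem_norm_sup (mem_norm_lw h) (mem_norm_ncl fun t ht =>
    ⟨x * t * x⁻¹, (mem_normalizer_iff.1 h2 t).1 ht, ?_⟩)
  conv_rhs => rw [← h1]
  group

theorem exists_top (hs : s.Nonempty) (h : ∀ Q ∈ s, ∀ R ∈ s, Q ≤ R ∨ R ≤ Q) :
    ∃ T ∈ s, ∀ Q ∈ s, Q ≤ T := by
  obtain ⟨T, hT⟩ := s.exists_maximal hs
  exact ⟨T, hT.1, fun Q hQ => (h Q hQ T hT.1).elim id fun h' => hT.2 hQ h'⟩

theorem Good.pg_tp [Fact p.Prime] (h : Good p u s) (hu : ∃ n : ℕ, orderOf u = p ^ n) :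
    IsPGroup p (tp u s) := by
  obtain ⟨n, hn⟩ := hu
  refine IsPGroup.to_sup_of_normal_left' ?_
    (IsPGroup.of_card (by rw [Nat.card_zpowers, hn])) ?_
  · rcases s.eq_empty_or_nonempty with rfl | hs
    · exact IsPGroup.of_bot
    · obtain ⟨T, h1, h2⟩ := exists_top hs h.chain
      exact (h.pg T h1).2.to_le (Finset.sup_le h2)
  · exact zpowers_le.2 (mem_norm_fsup fun Q hQ => h.nm Q hQ mem_tp)

theorem lw_insert [DecidableEq (Subgroup G)] (hu : u ∈ R) : lw u (insert R s) = lw u s := by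
  classical
  unfold lw
  rw [Finset.filter_insert, if_neg (not_not.2 hu)]

theorem Good.insert [Fact p.Prime] [DecidableEq (Subgroup G)] (h : Good p u s) (h1 : u ≠ 1)
    (hu : ∃ n : ℕ, orderOf u = p ^ n) :
    Good p u (insert (tg u s) s) ∧ tg u (insert (tg u s) s) = tg u s := by
  have e : tp u (Insert.insert (tg u s) s) = tp u s :=
    le_antisymm (tp_le (fun Q hQ => (Finset.mem_insert.1 hQ).elim (fun e => e ▸ tg_le_tp) le_tp)
      mem_tp) (tp_le (fun Q hQ => le_tp (Finset.mem_insert_of_mem hQ)) mem_tp)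
  have cmp : ∀ Q ∈ s, Q ≤ tg u s ∨ tg u s ≤ Q := fun Q hQ => by
    by_cases h' : u ∈ Q
    · exact Or.inr (h.tg_le hQ h')
    · exact Or.inl (le_tg hQ h')
  refine ⟨⟨?_, ?_, ?_⟩, by rw [tg, e, lw_insert mem_tg]; rfl⟩
  · simp only [Finset.forall_mem_insert]
    exact ⟨⟨Or.inl le_rfl, fun Q hQ => (cmp Q hQ).symm⟩, fun Q hQ => ⟨cmp Q hQ, h.chain Q hQ⟩⟩
  · simp only [Finset.forall_mem_insert]
    exact ⟨⟨fun e => h1 (mem_bot.1 (e ▸ mem_tg)), (h.pg_tp hu).to_le tg_le_tp⟩, h.pg⟩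
  · simp only [Finset.forall_mem_insert, e]
    exact ⟨h.tp_le_norm, h.nm⟩

theorem Good.erase [Fact p.Prime] [DecidableEq (Subgroup G)] (h : Good p u s)
    (hm : tg u s ∈ s) : Good p u (s.erase (tg u s)) ∧ tg u (s.erase (tg u s)) = tg u s := by
  have el : lw u (s.erase (tg u s)) = lw u s := by
    rw [← lw_insert (s := s.erase (tg u s)) (R := tg u s) mem_tg, Finset.insert_erase hm]
  have e1 : tp u (s.erase (tg u s)) ≤ tp u s :=
    tp_le (fun Q hQ => le_tp (Finset.mem_of_mem_erase hQ)) mem_tp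
  have e : tp u (s.erase (tg u s)) = tp u s := by
    refine le_antisymm e1 (tp_le (fun Q hQ => ?_) mem_tp)
    by_cases hQ' : Q = tg u s
    swap
    · exact le_tp (Finset.mem_erase.2 ⟨hQ', hQ⟩)
    subst hQ'
    by_cases h2 : ∃ Q ∈ s.erase (tg u s), u ∈ Q
    · obtain ⟨Q, h3, h4⟩ := h2
      exact (h.tg_le (Finset.mem_of_mem_erase h3) h4).trans (le_tp h3)
    · have h3 : tp u s ≤ tg u s := tp_le (fun Q hQ => by
        by_cases h4 : Q = tg u s
        · exact h4.le
        · exact le_tg hQ fun h5 => h2 ⟨Q, Finset.mem_erase.2 ⟨h4, hQ⟩, h5⟩) mem_tg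
      refine le_of_pgroup (h.pg _ hm).2 (e1.trans h3) fun N h4 _ h6 => sup_le ?_ ?_
      · rw [← el]
        exact (lw_le fun _ h _ => le_tp h).trans h4
      · exact ncl_le (h4 mem_tp) (h3.trans h6)
  refine ⟨⟨fun Q hQ R hR => h.chain Q (Finset.mem_of_mem_erase hQ) R (Finset.mem_of_mem_erase hR),
    fun Q hQ => h.pg Q (Finset.mem_of_mem_erase hQ),
    fun Q hQ => e1.trans (h.nm Q (Finset.mem_of_mem_erase hQ))⟩, by rw [tg, e, el]; rfl⟩

/-- The stabilizer of a chain. -/
abbrev st (s : Finset (Subgroup G)) : Subgroup G := ⨅ Q ∈ s, normalizer ((Q : Subgroup G) : Set G)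

theorem mem_st {x : G} : x ∈ st s ↔ ∀ Q ∈ s, x ∈ normalizer ((Q : Subgroup G) : Set G) := by
  simp [mem_iInf]

theorem st_insert [DecidableEq (Subgroup G)] :
    st (insert (tg u s) s) ⊓ centralizer {u} = st s ⊓ centralizer {u} := by
  ext x
  simp only [mem_inf, mem_st, Finset.forall_mem_insert]
  exact ⟨fun h => ⟨h.1.2, h.2⟩, fun h => ⟨⟨mem_norm_tg h.1 h.2, h.1⟩, h.2⟩⟩

open Classical in
theorem sum_good [Fact p.Prime] [Fintype (Subgroup G)] (h1 : u ≠ 1)
    (hu : ∃ n : ℕ, orderOf u = p ^ n) (F : Subgroup G → ℤ) :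
    ∑ s : Finset (Subgroup G) with Good p u s, (-1) ^ s.card * F (st s ⊓ centralizer {u}) = 0 := by
  refine Finset.sum_involution
    (fun s _ => if tg u s ∈ s then s.erase (tg u s) else insert (tg u s) s) ?_ ?_ ?_ ?_
  · intro s hs
    have h := (Finset.mem_filter.1 hs).2
    split_ifs with hm
    · have h2 := st_insert (u := u) (s := s.erase (tg u s))
      rw [(h.erase hm).2, Finset.insert_erase hm] at h2
      rw [h2, ← Finset.card_erase_add_one hm]
      ring
    · rw [st_insert, Finset.card_insert_of_notMem hm]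
      ring
  · intro s _ _
    split_ifs with hm
    · exact fun e => Finset.notMem_erase (tg u s) s (by rw [e]; exact hm)
    · exact fun e => hm (by have := Finset.mem_insert_self (tg u s) s; rwa [e] at this)
  · intro s hs
    have h := (Finset.mem_filter.1 hs).2
    refine Finset.mem_filter.2 ⟨Finset.mem_univ _, ?_⟩
    split_ifs with hm
    · exact (h.erase hm).1
    · exact (h.insert h1 hu).1
  · intro s hs
    have h := (Finset.mem_filter.1 hs).2
    by_cases hm : tg u s ∈ s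
    · simp only [if_pos hm, (h.erase hm).2, if_neg (Finset.notMem_erase _ s),
        Finset.insert_erase hm]
    · simp only [if_neg hm, (h.insert h1 hu).2, if_pos (Finset.mem_insert_self _ s),
        Finset.erase_insert hm]

theorem good_iff : Good p u s ↔ s = ∅ ∨ (s.Nonempty ∧ (∀ Q ∈ s, ∀ R ∈ s, Q ≤ R ∨ R ≤ Q) ∧
    (∀ Q ∈ s, Q ≠ ⊥ ∧ IsPGroup p Q) ∧
      ∃ T ∈ s, ∀ Q ∈ s, Q ≤ T ∧ T ≤ normalizer ((Q : Subgroup G) : Set G)) ∧ u ∈ st s := by
  constructor
  · intro h
    rcases s.eq_empty_or_nonempty with rfl | hs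
    · exact Or.inl rfl
    · obtain ⟨T, h1, h2⟩ := exists_top hs h.chain
      exact Or.inr ⟨⟨hs, h.chain, h.pg, T, h1, fun Q hQ => ⟨h2 Q hQ, (le_tp h1).trans (h.nm Q hQ)⟩⟩,
        mem_st.2 fun Q hQ => h.nm Q hQ mem_tp⟩
  · rintro (rfl | ⟨⟨-, h1, h2, T, -, h3⟩, h4⟩)
    · exact ⟨by simp, by simp, by simp⟩
    · exact ⟨h1, h2, fun Q hQ => tp_le (fun R hR => (h3 R hR).1.trans (h3 Q hQ).2)
        (mem_st.1 h4 Q hQ)⟩

end chains

end CA.H10KR
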