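import Cfsg.Agent.Lib.Block.H11Fb

/-!
# Watanabe's theorem on blocks with abelian defect groups
-/

set_option autoImplicit false
set_option linter.unusedSectionVars false

namespace CA.H11Wat

open Cfsg MonoidAlgebra CA.BlkAlg CA.BlkVal CA.H11Amb CA.H11Pair CA.H11Max CA.H11Brg CA.H11Map
  CA.H11Star CA.H11Eta CA.H11NilB CA.H11Tr CA.H11Fb CA.H11PS Subgroup
open CA.BlkCore hiding lam lam_mul lam_one

theorem exists_lin {A : Type*} [Group A] [Finite A] {p : ℕ} [hp : Fact p.Prime]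
    (hA : ∀ a b : A, a * b = b * a) (hP : IsPGroup p A) {E : Subgroup (MulAut A)}
    (hE : ¬ p ∣ Nat.card E) {S : Subgroup A} (hS : ∀ α ∈ E, ∀ s ∈ S, α s = s) {u : A} (hu : u ∉ S)
    (h : ∀ α ∈ E, α u = u) : ∃ l : A →* ℂˣ, l ≠ 1 ∧ (∀ s ∈ S, l s = 1) ∧ ∀ α ∈ E, ∀ a, l (α a) = l a := by
  letI : CommGroup A := { mul_comm := hA }
  haveI := Fintype.ofFinite E
  obtain ⟨μ, h1⟩ := not_forall.1 (mt (CommGroup.forall_monoidHom_apply_eq_one_iff ℂ S u).1 hu)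
  rw [Classical.not_imp] at h1
  refine ⟨∏ α : E, μ.comp α.1.toMonoidHom, fun h2 => h1.2 ?_, fun s hs => ?_, fun α hα a => ?_⟩
  · have h3 := DFunLike.congr_fun h2 u
    simp only [MonoidHom.finsetProd_apply, MonoidHom.comp_apply, MulEquiv.coe_toMonoidHom,
      fun α : E => h α α.2, Finset.prod_const, Finset.card_univ, ← Nat.card_eq_fintype_card,
      MonoidHom.one_apply] at h3
    obtain ⟨n, hn⟩ := hP u
    exact pow_eq_one_iff_of_coprime (((hp.out.coprime_iff_not_dvd).2 hE).pow_left n) |>.1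
      ⟨by rw [← map_pow, hn, map_one], h3⟩
  · simp [fun α : E => hS α α.2 s hs, h1.1 s hs]
  · simp only [MonoidHom.finsetProd_apply, MonoidHom.comp_apply, MulEquiv.coe_toMonoidHom]
    exact Fintype.prod_equiv (Equiv.mulRight ⟨α, hα⟩) _ _ fun β => rfl

variable {p : ℕ} {M : Ideal AlgInt} {G : Type*} [Group G] [Fintype G] {P Q : Subgroup G}
  {b e : (k M)[G]} [Fact p.Prime]

open Classical in
variable (p P e) in
/-- The block of the centralizer of `Q` below the pair `(P, e)`. -/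
noncomputable def lq (Q : Subgroup G) : Set (IrrCharacter (CC Q)) :=
  if h : ∃ c, IsPBlock M c ∧ Sub p ⊤ Q (ab M (CC Q) c) P e then h.choose else ∅

theorem lq_spec (hM : IsPModular p M) (he : Pr p ⊤ P e) (hQ : Q ≤ P) :
    IsPBlock M (lq p P e Q) ∧ Sub p ⊤ Q (ab M (CC Q) (lq p P e Q)) P e := by
  obtain ⟨f, hf⟩ := exists_sub (p_eq hM) he hQ
  obtain ⟨c, hc, rfl⟩ := exists_of_pr hM (hf.pr he)
  have h : ∃ c, IsPBlock M c ∧ Sub p ⊤ Q (ab M (CC Q) c) P e := ⟨c, hc.2, hf⟩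
  rw [lq, dif_pos h]
  exact h.choose_spec

variable (P e Q) in
/-- The length of an orbit of the inertial group of the local block. -/
noncomputable def nq (v : G) : ℕ := Nat.card {w : P // ∃ t ∈ St ⊤ P e ⊓ CC Q, t * v * t⁻¹ = w}

theorem nq_of_mem {v : G} (hv : v ∈ Q) (hQ : Q ≤ P) : nq P Q e v = 1 :=
  Nat.card_eq_one_iff_exists.2 ⟨⟨⟨v, hQ hv⟩, 1, one_mem _, by simp⟩, fun ⟨w, t, ht, h⟩ =>
    Subtype.ext (Subtype.ext (by simp [← h, ← mem_CC.1 ht.2 v hv]))⟩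

theorem formulas [Fintype P] (hM : IsPModular p M) (h : Mx p ⊤ b P e) (hP : P ≤ CC P) (hQ : Q ≤ P) :
    (Nat.card (lq p P e Q) : ℂ) =
      ∑ v : P, (blockRank p (lq p P e (Q ⊔ zpowers (v : G))) : ℂ) / nq P Q e v ∧
    ∀ l : P →* ℂˣ, (∀ t ∈ St ⊤ P e ⊓ CC Q, ∀ v w : P, t * v * t⁻¹ = w → l v = l w) → l ≠ 1 →
      ∑ v : P, hc l v * ((blockRank p (lq p P e (Q ⊔ zpowers (v : G))) : ℂ) / nq P Q e v) = 0 := by
  have hp := p_eq hM
  have hi := (CC Q).subtype_injective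
  obtain ⟨hc, hs⟩ := lq_spec hM h.pr hQ
  have h0 := hP.trans (CC_anti hQ)
  have h1 := h.local hp hs (hQ.trans h0) inf_le_right ((top_inf_eq _).ge.trans (hs.pr h.pr).C_le_St) h0
  obtain ⟨e', rfl⟩ := exists_mp_eq hi (L := ⊤) (f := e) (by rw [map_top_subtype]; exact h1.pr.suppH)
  have h2 : Mx p ⊤ (eB M (lq p P _ Q)) (P.subgroupOf (CC Q)) e' := (mx_mp_iff hi).1 (by
    rwa [map_top_subtype, map_subgroupOf_eq_of_le h0])
  haveI := Fintype.ofFinite (CC Q)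
  haveI := Fintype.ofFinite (P.subgroupOf (CC Q))
  choose c h3 h4 using exists_lB hM hc h2
  let ι := (subgroupOfEquivOfLe h0).symm
  have h5 : ∀ w : P.subgroupOf (CC Q), w.1 ∈ CC (P.subgroupOf (CC Q)) := fun w =>
    mem_CC.2 fun x hx => Subtype.ext (mem_CC.1 (hP w.2) _ hx)
  have h6 : ∀ v w : P, FC p _ e' (ι v : CC Q) (ι w) ↔
      ∃ t ∈ St ⊤ P (mp (CC Q).subtype e') ⊓ CC Q, t * v * t⁻¹ = w := fun v w => by
    have h1 : ∀ t : CC Q, t ∈ St ⊤ (P.subgroupOf (CC Q)) e' ↔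
        (t : G) ∈ St ⊤ P (mp (CC Q).subtype e') := fun t => by
      rw [mem_St, mem_St, ← mem_NN_map hi, map_subgroupOf_eq_of_le h0, ← cjA_mp_eq_iff hi]
      simp
    rw [fc_iff_of_central hp h2 (ι v).2 (h5 _) (h5 _)]
    exact ⟨fun ⟨t, ht, h⟩ => ⟨t, ⟨(h1 t).1 ht, t.2⟩, congrArg Subtype.val h⟩,
      fun ⟨t, ht, h⟩ => ⟨⟨t, ht.2⟩, (h1 _).2 ht.1, Subtype.ext h⟩⟩
  have h7 : ∀ v : P, (blockRank p (c (ι v)) : ℂ) / nF p e' (ι v) =
      blockRank p (lq p P (mp (CC Q).subtype e') (Q ⊔ zpowers (v : G))) /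
        nq P Q (mp (CC Q).subtype e') v := fun v => by
    have hv := zpowers_le.2 v.2
    obtain ⟨hc', hs'⟩ := lq_spec hM h.pr (sup_le hQ hv)
    have hz : (zpowers (ι v : CC Q)).map (CC Q).subtype = zpowers (v : G) := MonoidHom.map_zpowers _ _
    have hl := hP.trans (CC_anti (sup_le hQ hv))
    rw [← (rank_congr hM hi (by
      rw [← CC_zpowers, ← top_inf_eq (CC (zpowers _)), map_inf_CC hi, map_top_subtype, hz, CC_sup])
      (h3 _).1 hc' ?_).1, nF, nq, Nat.card_congr (ι.toEquiv.subtypeEquiv (q := fun w : P.subgroupOf (CC Q) =>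
        FC p _ e' (ι v : CC Q) w) fun w => (h6 v w).symm)]
    have h8 := (sub_mp_iff hi).2 (lb_sub hp h2.pr (ι v).2)
    rw [map_top_subtype, hz, map_subgroupOf_eq_of_le h0] at h8
    rw [h4]
    exact Sub.unique hp h1.pr (nsub_of_ne hp ⟨hv.trans h0, h.pr.pg.to_le hv, by
      rw [← CC_sup]; exact blk_ab hM hc'⟩ h1.pr hv (hP.trans ((CC_anti hv).trans (CC_le_NN _)))
      (fixed_anti hl (blk_ab hM hc').fixed) ((hs'.nsub hp h.pr (hl.trans (CC_le_NN _))).br.trans_ne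
        h.pr.blk.ne)).sub h8
  refine ⟨?_, fun l hl h8 => ?_⟩
  · rw [card_eq_sum hM hc h2 h3 h4, ← ι.toEquiv.sum_comp]
    exact Finset.sum_congr rfl fun v _ => h7 v
  · obtain ⟨w, hw⟩ := DFunLike.ne_iff.1 h8
    rw [← sum_rank_eq_zero hM hc h2 h3 h4 (l := l.comp ι.symm.toMonoidHom) (w := ι w)
      (mem_Lin.2 fun v w h => ?_) (h5 _) hw, ← ι.toEquiv.sum_comp]
    · exact Finset.sum_congr rfl fun v _ => congrArg _ (h7 v).symm
    · obtain ⟨t, ht, h⟩ := (h6 (ι.symm v) (ι.symm w)).1 h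
      exact hl t ht _ _ h

theorem wat (hM : IsPModular p M) (h : Mx p ⊤ b P e) (hP : P ≤ CC P) {u : G} (hu : u ∈ P)
    (hQ : Q ≤ P) (hT : St ⊤ P e ⊓ CC Q ≤ CC (zpowers u)) :
    blockRank p (lq p P e (Q ⊔ zpowers u)) = blockRank p (lq p P e Q) ∧
      Nat.card (lq p P e (Q ⊔ zpowers u)) = Nat.card (lq p P e Q) := by
  classical
  induction Q using WellFoundedGT.induction with | ind Q ih => ?_
  haveI := Fintype.ofFinite P
  by_cases h0 : u ∈ Q
  · rw [sup_eq_left.2 (zpowers_le.2 h0)]; exact ⟨rfl, rfl⟩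
  have h1 : St ⊤ P e ⊓ CC (Q ⊔ zpowers u) = St ⊤ P e ⊓ CC Q := by
    rw [CC_sup, ← inf_assoc, inf_eq_left.2 hT]
  obtain ⟨h2, h3⟩ := formulas hM h hP hQ
  obtain ⟨h4, h5⟩ := formulas hM h hP (sup_le hQ (zpowers_le.2 hu))
  have h6 : ∀ v : P, (blockRank p (lq p P e (Q ⊔ zpowers u ⊔ zpowers (v : G))) : ℂ) /
      nq P (Q ⊔ zpowers u) e v = blockRank p (lq p P e (Q ⊔ zpowers (v : G))) / nq P Q e v +
      if (v : G) ∈ Q then (blockRank p (lq p P e (Q ⊔ zpowers u)) - blockRank p (lq p P e Q) : ℂ)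
      else 0 := fun v => by
    rw [nq, h1, ← nq, sup_right_comm]
    split_ifs with hv
    · rw [sup_eq_left.2 (zpowers_le.2 hv), nq_of_mem hv hQ]; simp
    · rw [(ih _ (left_lt_sup.2 (mt zpowers_le.1 hv)) (sup_le hQ (zpowers_le.2 v.2))
        ((inf_le_inf_left _ (CC_anti le_sup_left)).trans hT)).1, add_zero]
  have hN : St ⊤ P e ⊓ CC Q ≤ NN P := inf_le_left.trans St_le_NN
  have h7 := h.not_dvd (p_eq hM)
  rw [top_inf_eq, sup_eq_right.2 hP] at h7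
  have h8 : ∀ {x : P}, St ⊤ P e ⊓ CC Q ≤ CC (zpowers (x : G)) →
      ∀ α ∈ (act (MulEquiv.refl P) hN).range, α x = x := by
    rintro x hx _ ⟨t, rfl⟩
    exact Subtype.ext ((coe_act (MulEquiv.refl P) hN t x).trans (mul_inv_eq_iff_eq_mul.2
      (mem_CC.1 (hx t.2) x (mem_zpowers _)).symm))
  obtain ⟨l, h9, h10, h11⟩ := exists_lin (fun a b : P => Subtype.ext (mem_CC.1 (hP b.2) _ a.2))
    h.pr.pg (E := (act (MulEquiv.refl P) hN).range) (S := Q.subgroupOf P) (u := ⟨u, hu⟩) (fun hd =>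
      h7 (hd.trans (card_range_act (MulEquiv.refl P) (St_le_NN (H := ⊤) (f := e)) ▸ card_dvd_of_le fun α hα =>
        (mem_range_act _ _).2 (((mem_range_act _ _).1 hα).imp fun t ht => ⟨ht.1.1, ht.2⟩))))
    (fun α hα s hs => h8 (inf_le_right.trans (CC_anti (zpowers_le.2 hs))) α hα) h0 (h8 hT)
  have h12 : ∀ t ∈ St ⊤ P e ⊓ CC Q, ∀ v w : P, t * v * t⁻¹ = w → l v = l w := fun t ht v w h => by
    rw [← h11 _ ⟨⟨t, ht⟩, rfl⟩ v]
    exact congrArg l (Subtype.ext ((coe_act (MulEquiv.refl P) hN ⟨t, ht⟩ v).trans h))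
  have h13 := h5 l (h1 ▸ h12) h9
  simp only [h6, mul_add, Finset.sum_add_distrib, h3 l h12 h9, zero_add, mul_ite, mul_zero] at h13
  rw [← Finset.sum_filter, Finset.sum_congr rfl fun v hv => by
    rw [hc_apply, h10 v (Finset.mem_filter.1 hv).2, Units.val_one, one_mul], Finset.sum_const,
    nsmul_eq_mul, mul_eq_zero, Nat.cast_eq_zero, Finset.card_eq_zero, sub_eq_zero] at h13
  have h14 := h13.resolve_left (Finset.ne_empty_of_mem (a := 1) (by simp))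
  simp only [h6, h14, sub_self, ite_self, add_zero, ← h2] at h4
  exact ⟨by exact_mod_cast h14, by exact_mod_cast h4⟩

end CA.H11Wat
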