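import Cfsg.Agent.Lib.Block.H12DC2

/-!
# Defect groups of dominated blocks
-/

set_option autoImplicit false
set_option linter.unusedSectionVars false

namespace CA.H12Dom

open Cfsg MonoidAlgebra CA.BlkAlg CA.BlkVal CA.BlkOmega CA.BlkRed CA.BlkCore CA.BlkDefect CA.SylIn
  CA.BlkHeight CA.BlkQuo CA.H11Map CChar.CharFun CChar.CharOrth CChar.CharInt Subgroup

variable {p : ℕ} [hp : Fact p.Prime] {M : Ideal AlgInt} {G Q : Type*} [Group G] [Group Q]
  [Finite G] [Finite Q] {φ : G →* Q} {B : Set (IrrCharacter G)} {b : Set (IrrCharacter Q)}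

theorem map_conj (φ : G →* Q) (g : G) (P : Subgroup G) : (g •ᶜ P).map φ = φ g •ᶜ P.map φ := by
  rw [Subgroup.map_map, Subgroup.map_map]
  congr 1
  ext x; simp

theorem isSylowIn_map_of (hφ : Function.Surjective φ) {P : Subgroup G} {H : Subgroup Q}
    (h : IsSylowIn p P (H.comap φ)) : IsSylowIn p (P.map φ) H := by
  refine ⟨map_le_iff_le_comap.2 h.le, h.isPGroup.map φ, fun e => h.not_dvd (e.trans ?_)⟩
  rw [← map_comap_eq_self_of_surjective hφ H, ← relIndex_comap,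
    map_comap_eq_self_of_surjective hφ H]
  exact relIndex_dvd_of_le_left _ (le_comap_map φ P)

theorem exists_defect_ge (hφ : Function.Surjective φ) (hM : IsPModular p M) (hb : IsPBlock M b)
    (hB : IsPBlock M B) {ψ : IrrCharacter Q} (hψ : ψ ∈ b) (h : infl hφ ψ ∈ B) {D : Subgroup Q}
    (hD : IsDefectGroup p M b D) : ∃ P, IsDefectGroup p M B P ∧ D ≤ P.map φ := by
  obtain ⟨P, hP⟩ := exists_isDefectGroup hM hB
  obtain ⟨x, h1, h2⟩ := isDefectGroup_iff.1 hP
  have h3 := ((isDefectClass_iff hM hB h x).1 h1).2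
  have hle : centralizer ({x} : Set G) ≤ (centralizer ({φ x} : Set Q)).comap φ := fun y hy =>
    mem_centralizer_singleton_iff.2 (by
      rw [← map_mul, mem_centralizer_singleton_iff.1 hy, map_mul])
  have e : centralChar (infl hφ ψ).1 x = ((centralizer ({x} : Set G)).relIndex
      ((centralizer ({φ x} : Set Q)).comap φ) : ℕ) * centralChar ψ.1 (φ x) := by
    simp only [centralChar, infl_apply, map_one]
    rw [← relIndex_mul_index hle, index_comap_of_surjective _ hφ]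
    push_cast; ring
  rw [lam_classSum_irr, e, res_mul (natCast_mem_O _) (isIntegral_mem (isIntegral_centralChar ψ.2 _)),
    res_natCast, ← lam_classSum_irr, mul_ne_zero_iff, Ne, natCast_k_eq_zero_iff hM] at h3
  have h4 : IsSylowIn p P ((centralizer ({φ x} : Set Q)).comap φ) :=
    ⟨h2.le.trans hle, h2.isPGroup, by
      rw [← relIndex_mul_relIndex _ _ _ h2.le hle]
      exact hp.out.not_dvd_mul h2.not_dvd h3.1⟩
  obtain ⟨y, hy⟩ := exists_conj_le_of_lam_ne_zero hM hb hψ hD h3.2 (isSylowIn_map_of hφ h4)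
  obtain ⟨y, rfl⟩ := hφ y
  exact ⟨y⁻¹ •ᶜ P, isDefectGroup_conj hP _, by
    rw [map_conj, map_inv]; exact conj_le_iff_le_inv_conj.1 hy⟩

theorem exists_dom (hφ : Function.Surjective φ) (hM : IsPModular p M) (hN : IsPGroup p φ.ker)
    (hB : IsPBlock M B) : ∃ b, IsPBlock M b ∧ (∀ ψ ∈ b, infl hφ ψ ∈ B) ∧
      ∀ D, IsDefectGroup p M b D ↔ ∃ P, IsDefectGroup p M B P ∧ D = P.map φ := by
  classical
  obtain ⟨P, hP⟩ := exists_isDefectGroup hM hB
  obtain ⟨x, h1, h2⟩ := isDefectGroup_iff.1 hP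
  obtain ⟨χ, hχ⟩ := block_nonempty hM hB
  have h3 := ((isDefectClass_iff hM hB hχ x).1 h1).1
  have hs := isSat_of_isPBlock hM hB
  have hA := isSat_preimage hφ hM hs
  rw [← coeff_mp_eB_of_ne_zero hM hN hs h3, mp_eB hφ hs, ← one_mul (eB M _), ← sum_eB_blocks hM,
    Finset.sum_mul, coeff_sum'] at h3
  obtain ⟨b, hb, h4⟩ := Finset.exists_ne_zero_of_sum_ne_zero h3
  rw [mem_blocks] at hb
  have h5 : b ⊆ infl hφ ⁻¹' B := by
    rw [eB_mul_eB (isSat_of_isPBlock hM hb) hA] at h4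
    obtain ⟨ψ, h5⟩ := (b ∩ infl hφ ⁻¹' B).eq_empty_or_nonempty.resolve_left fun e => h4 (by
      rw [e, eB_empty]; rfl)
    exact hA.subset_of_mem hM hb h5.1 h5.2
  rw [eB_mul_eB (isSat_of_isPBlock hM hb) hA, Set.inter_eq_left.2 h5] at h4
  obtain ⟨ψ, hψ⟩ := block_nonempty hM hb
  obtain ⟨D, hD⟩ := exists_isDefectGroup hM hb
  obtain ⟨y, hy⟩ := exists_conj_le_of_coeff_ne_zero hM hb hD h4 (h2.isPGroup.map φ)
    (map_le_iff_le_comap.2 fun y hy => mem_centralizer_singleton_iff.2 (by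
      rw [← map_mul, mem_centralizer_singleton_iff.1 (h2.le hy), map_mul]))
  have h6 : ∀ P' D', IsDefectGroup p M B P' → IsDefectGroup p M b D' →
      Nat.card (P'.map φ) ≤ Nat.card D' := fun P' D' h h' => by
    obtain ⟨z, rfl⟩ := exists_conj_eq_of_isDefectGroup hM hB hP h
    rw [map_conj, card_conj, card_eq_of_isDefectGroup hM hb h' hD, ← card_conj y]
    exact card_le_of_le hy
  have h7 : ∀ D, IsDefectGroup p M b D → ∃ P, IsDefectGroup p M B P ∧ D = P.map φ := fun D hD => by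
    obtain ⟨P', h7, h8⟩ := exists_defect_ge hφ hM hb hB hψ (h5 hψ) hD
    exact ⟨P', h7, eq_of_le_of_card_ge h8 (h6 P' D h7 hD)⟩
  refine ⟨b, hb, fun ψ h => h5 h, fun D' => ⟨h7 D', ?_⟩⟩
  rintro ⟨P', h8, rfl⟩
  obtain ⟨P'', h9, rfl⟩ := h7 D hD
  obtain ⟨z, rfl⟩ := exists_conj_eq_of_isDefectGroup hM hB h9 h8
  rw [map_conj]
  exact isDefectGroup_conj hD _

end CA.H12Dom
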