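import Cfsg.Agent.Lib.Block.H12Brg

/-!
# The Fong–Reynolds correspondence for characters
-/

set_option autoImplicit false
set_option linter.unusedSectionVars false
set_option linter.unusedVariables false

namespace CA.H12FRc
open Cfsg MonoidAlgebra CA.BlkAlg CA.BlkVal CA.BlkOmega CA.BlkRed CA.BlkCore CA.BlkDefect CA.SylIn
  CA.BlkInd CA.BlkHeight CChar.CharFun CChar.CharOrth Subgroup CA.H11Amb CA.H11Def CA.H11Pair
  CA.H11Map CA.H11Brg CA.H12Cover CA.H12Fong CA.H12FR CA.Clif CA.H12Brg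

variable {p : ℕ} [Fact p.Prime] {M : Ideal AlgInt} {G : Type*} [Group G] [Fintype G]
  {N : Subgroup G} [hN : N.Normal] {b : Set (IrrCharacter N)} {T : Subgroup G}
  {B' : Set (IrrCharacter T)} {B : Set (IrrCharacter G)}

theorem eq_stab (hM : IsPModular p M) (hb : IsPBlock M b)
    (hT : ∀ g : G, g ∈ T ↔ ∀ θ ∈ b, ∀ θ' : IrrCharacter N, (∀ n : N, (θ' : N → ℂ) n =
      (θ : N → ℂ) ⟨g * n * g⁻¹, hN.conj_mem n n.2 g⟩) → θ' ∈ b) : T = ⊤ ⊓ Stab (ab M N b) := by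
  ext g; rw [hT, stab_iff hM hb, top_inf_eq]

theorem ind_iff (hM : IsPModular p M) (hb : IsPBlock M b) (hT : T = ⊤ ⊓ Stab (ab M N b))
    (hB' : IsPBlock M B') (h : ab M T B' * ab M N b ≠ 0) (hB : IsPBlock M B) :
    IsInducedBlock M T B' B ↔ eB M B * ab M N b = ab M T B' := by
  subst hT
  have hNN := NN_top_of_normal N
  have key : ∀ B, IsPBlock M B → eB M B * ab M N b = ab M _ B' → IsInducedBlock M _ B' B :=
    fun B hB h1 => (isInducedBlock_iff_amb hM hB' hB).2 fun z hz => h1 ▸ fr_lam le_top hNN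
      (blk_ab hM hb) (blk_eB hM hB) (h1.trans_ne (blk_ab hM hB').ne) hz
  refine ⟨fun h1 => ?_, key B hB⟩
  obtain ⟨E, hE, h2⟩ := fr_exists le_top hNN (blk_ab hM hb) (blk_ab hM hB') h
  obtain ⟨B₁, hB₁, rfl⟩ := exists_eB hM hE
  rwa [induced_unique hM h1 (key B₁ hB₁ h2)]

theorem exists_ind (hM : IsPModular p M) (hb : IsPBlock M b) (hT : T = ⊤ ⊓ Stab (ab M N b))
    (hB' : IsPBlock M B') (h : ab M T B' * ab M N b ≠ 0) :
    ∃ B, IsInducedBlock M T B' B ∧ eB M B * ab M N b = ab M T B' := by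
  obtain ⟨E, hE, h2⟩ := fr_exists le_top (NN_top_of_normal N) (blk_ab hM hb)
    (hT ▸ blk_ab hM hB') h
  obtain ⟨B₁, hB₁, rfl⟩ := exists_eB hM hE
  exact ⟨B₁, (ind_iff hM hb hT hB' h hB₁).2 h2, h2⟩

theorem exists_ind' (hM : IsPModular p M) (hb : IsPBlock M b) (hT : T = ⊤ ⊓ Stab (ab M N b))
    (hB : IsPBlock M B) (h : eB M B * ab M N b ≠ 0) : ∃ B', IsPBlock M B' ∧
      ab M T B' * ab M N b ≠ 0 ∧ IsInducedBlock M T B' B ∧ eB M B * ab M N b = ab M T B' := by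
  obtain ⟨B', hB', h1⟩ := exists_ab (H := T) hM (hT ▸ fr_blk le_top (NN_top_of_normal N)
    (blk_ab hM hb) (blk_eB hM hB) h)
  have h2 : ab M T B' * ab M N b ≠ 0 := by rwa [h1, mul_assoc, (blk_ab hM hb).idem]
  exact ⟨B', hB', h2, (ind_iff hM hb hT hB' h2 hB).2 h1.symm, h1.symm⟩

theorem le_T (hM : IsPModular p M) (hb : IsPBlock M b) (hT : T = ⊤ ⊓ Stab (ab M N b)) : N ≤ T :=
  hT ▸ le_stab le_top (blk_ab hM hb)

theorem irr_ind (hM : IsPModular p M) (hb : IsPBlock M b) (hT : T = ⊤ ⊓ Stab (ab M N b))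
    (hB' : IsPBlock M B') (h : ab M T B' * ab M N b ≠ 0) {ψ : IrrCharacter T} (hψ : ψ ∈ B') :
    IsIrrCharacter G (indFun T ψ.1) := by
  have := Fintype.ofFinite N
  have hNT := le_T hM hb hT
  obtain ⟨θ, hθ, h1⟩ := exists_underIn_of_mul hM hNT hB' hb
    (mul_eq_of_blk_stab le_top (blk_ab hM hb) (hT ▸ blk_ab hM hB') h) hψ
  exact irr_indFun_of_inertia_le hNT θ.2 (hT ▸ le_inf le_top (inertia_le_stab hM hb hθ)) ψ.2 h1

omit hN in
theorem ind_mem (hM : IsPModular p M) (hind : IsInducedBlock M T B' B) {ψ : IrrCharacter T}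
    (hψ : ψ ∈ B') (h : IsIrrCharacter G (indFun T ψ.1)) : (⟨_, h⟩ : IrrCharacter G) ∈ B := by
  obtain ⟨χ, hχ⟩ := block_nonempty hM hind.2.1
  exact mem_of_sameBlock hM hind.2.1 hχ
    ((ind_of_isInducedBlock hM hind hψ hχ).sameBlock hM (ind_of_irr_indFun T ψ h))

theorem exists_eq_ind (hM : IsPModular p M) (hb : IsPBlock M b) (hT : T = ⊤ ⊓ Stab (ab M N b))
    (h : ab M T B' * ab M N b ≠ 0) (hind : IsInducedBlock M T B' B) {χ : IrrCharacter G}
    (hχ : χ ∈ B) : ∃ ψ ∈ B', χ.1 = indFun T ψ.1 := by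
  have := Fintype.ofFinite N
  have := Fintype.ofFinite T
  have hNT := le_T hM hb hT
  have hB := hind.2.1
  have h1 := (ind_iff hM hb hT hind.1 h hB).1 hind
  obtain ⟨θ, hθ, h2⟩ := exists_mem_over_of_cov hM (isSat_of_isPBlock hM hb) hB
    (cov_iff.2 ((cov_iff_ab hM hB hb).2 (h1.trans_ne (blk_ab hM hind.1).ne))) hχ
  obtain ⟨ψ, hψ, h3, h4⟩ := CA.Cons.exists_irr_between hNT (char_of_irr χ.2) (over_iff.1 h2)
  have hb' := isPBlock_blockOf (M := M) ⟨ψ, hψ⟩
  have hm := self_mem_blockOf hM ⟨ψ, hψ⟩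
  have h5 := (covIn_iff_ab hM hNT hb' hb).1 ⟨_, hm, θ, hθ, h4⟩
  have h6 := irr_ind hM hb hT hb' h5 hm
  have h7 : χ.1 = indFun T ψ := by
    by_contra hne
    rw [← CA.Ind.inner_ind_right T ψ (irr_classFun χ.2), inner_irr_irr χ.2 h6, if_neg hne] at h3
    exact h3 rfl
  obtain ⟨B₁, h8, h9⟩ := exists_ind hM hb hT hb' h5
  obtain rfl : B₁ = B := block_eq_of_mem hM h8.2.1 hB (ind_mem hM h8 hm h6)
    (by convert hχ; exact h7.symm)
  exact ⟨⟨ψ, hψ⟩, ab_inj hM hb' hind.1 (h9.symm.trans h1) ▸ hm, h7⟩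

theorem isDefectGroup_map (hM : IsPModular p M) (hb : IsPBlock M b)
    (hT : T = ⊤ ⊓ Stab (ab M N b)) (h : ab M T B' * ab M N b ≠ 0)
    (hind : IsInducedBlock M T B' B) {D : Subgroup T} (hD : IsDefectGroup p M B' D) :
    IsDefectGroup p M B (D.map T.subtype) := by
  have h1 := (ind_iff hM hb hT hind.1 h hind.2.1).1 hind
  rw [isDefectGroup_iff_map hM hind.1, ← h1] at hD
  exact (isDefectGroup_iff_top hM hind.2.1).2 (fr_isDef (p_eq_zero hM) le_top (NN_top_of_normal N)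
    (blk_ab hM hb) (blk_eB hM hind.2.1) (h1.trans_ne (blk_ab hM hind.1).ne) (hT ▸ hD))

theorem blockDefect_eq' (hM : IsPModular p M) (hb : IsPBlock M b)
    (hT : T = ⊤ ⊓ Stab (ab M N b)) (h : ab M T B' * ab M N b ≠ 0)
    (hind : IsInducedBlock M T B' B) : blockDefect p B = blockDefect p B' := by
  obtain ⟨D, hD⟩ := exists_isDefectGroup hM hind.1
  rw [← factorization_card_defectGroup hM hind.1 hD, ← factorization_card_defectGroup hM hind.2.1
    (isDefectGroup_map hM hb hT h hind hD), card_map_of_injective T.subtype_injective]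

omit hN in
theorem charDegree_ind {ψ : T → ℂ} (hψ : IsCharacter T ψ) :
    charDegree (indFun T ψ) = T.index * charDegree ψ := by
  obtain ⟨d, hd⟩ := char_apply_one hψ
  rw [CChar.CharInt.charDegree_eq (n := T.index * d)
    (by rw [CA.Ind.indFun_one, hd]; push_cast; rfl),
    CChar.CharInt.charDegree_eq hd]

theorem blockHeight_ind (hM : IsPModular p M) (hb : IsPBlock M b)
    (hT : T = ⊤ ⊓ Stab (ab M N b)) (h : ab M T B' * ab M N b ≠ 0)
    (hind : IsInducedBlock M T B' B) {ψ : IrrCharacter T} (hψ : ψ ∈ B') :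
    blockHeight p B (indFun T ψ.1) = blockHeight p B' ψ.1 := by
  have h1 := factorization_add_blockDefect (p := p)
    (ind_mem hM hind hψ (irr_ind hM hb hT hind.1 h hψ))
  have h2 := factorization_add_blockDefect (p := p) hψ
  have h3 := factorization_index_add T p
  rw [blockDefect_eq' hM hb hT h hind, charDegree_ind (char_of_irr ψ.2),
    Nat.factorization_mul index_ne_zero_of_finite (CChar.CharInt.charDegree_pos ψ.2).ne',
    Finsupp.add_apply] at h1
  dsimp only at h1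
  omega

end CA.H12FRc
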